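/-
Finite facts: quotients appearing in Zassenhaus's theorem, and normal subgroups of `SL(2,5)`.
-/
import Cfsg.Agent.FGS4.Zass.Main
import Mathlib.GroupTheory.SpecificGroups.Dihedral
import Mathlib.GroupTheory.SpecificGroups.Quaternion
import Mathlib.GroupTheory.SpecificGroups.Alternating
import Mathlib.GroupTheory.SpecificGroups.Alternating.Simple

set_option autoImplicit false
set_option linter.style.haveILetI false

namespace Cfsg.Agent.FGS4.Zass

/-- The map of a quaternion group onto the four-group. -/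
def quatV {m : ℕ} (hm : Even m) : QuaternionGroup m →* DihedralGroup 2 :=
  let c := ZMod.castHom (dvd_mul_right 2 m) (ZMod 2)
  MonoidHom.mk' (fun q => match q with
    | .a i => DihedralGroup.r (c i)
    | .xa i => DihedralGroup.sr (c i)) (by
    have hm0 : (m : ZMod 2) = 0 := by
      obtain ⟨k, rfl⟩ := hm
      rw [Nat.cast_add, CharTwo.add_self_eq_zero]
    have h2 : ∀ x : ZMod 2, -x = x := by decide
    rintro (i | i) (j | j) <;>
      simp [c, hm0, map_add, map_sub, DihedralGroup.r_mul_r, DihedralGroup.r_mul_sr,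
        DihedralGroup.sr_mul_r, DihedralGroup.sr_mul_sr, sub_eq_add_neg, h2, add_comm])

theorem quatV_surjective {m : ℕ} (hm : Even m) : Function.Surjective (quatV hm) := by
  rintro (i | i)
  · obtain ⟨j, rfl⟩ := ZMod.castHom_surjective (dvd_mul_right 2 m) i
    exact ⟨.a j, rfl⟩
  · obtain ⟨j, rfl⟩ := ZMod.castHom_surjective (dvd_mul_right 2 m) i
    exact ⟨.xa j, rfl⟩

theorem quatV_ker_isCyclic {m : ℕ} [NeZero m] (hm : Even m) : IsCyclic (quatV hm).ker := by
  have hle : (quatV hm).ker ≤ Subgroup.zpowers (QuaternionGroup.a 1) := by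
    rintro (i | i) h
    · rw [← ZMod.natCast_zmod_val i, ← QuaternionGroup.a_one_pow]
      exact Subgroup.npow_mem_zpowers _ _
    · rw [MonoidHom.mem_ker, DihedralGroup.one_def] at h
      cases h
  exact isCyclic_of_injective (Subgroup.inclusion hle) (Subgroup.inclusion_injective hle)

theorem quat_top {m : ℕ} [NeZero m] :
    Subgroup.closure {QuaternionGroup.a 1, QuaternionGroup.xa 0} = (⊤ : Subgroup (QuaternionGroup m)) := by
  rw [eq_top_iff]
  have ha : ∀ i : ZMod (2 * m), QuaternionGroup.a i ∈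
      Subgroup.closure {QuaternionGroup.a 1, (QuaternionGroup.xa 0 : QuaternionGroup m)} := fun i => by
    rw [← ZMod.natCast_zmod_val i, ← QuaternionGroup.a_one_pow]
    exact pow_mem (Subgroup.subset_closure (Set.mem_insert _ _)) _
  rintro (i | i) -
  · exact ha i
  · rw [show (QuaternionGroup.xa i : QuaternionGroup m) = QuaternionGroup.xa 0 * QuaternionGroup.a i by
      simp [QuaternionGroup.xa_mul_a]]
    exact mul_mem (Subgroup.subset_closure (Set.mem_insert_of_mem _ rfl)) (ha i)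

/-- A normal Z-subgroup is trivial if there is a self-centralizing normal subgroup that is
minimal and not a Z-group. -/
theorem eq_bot_of_zgroup {Q : Type*} [Group Q] [Finite Q] (D V : Subgroup Q) [hD : D.Normal]
    [hV : V.Normal] [IsZGroup D] (hVZ : ¬ IsZGroup V) (hmin : D ⊓ V = ⊥ ∨ V ≤ D)
    (hself : ∀ x : Q, (∀ v ∈ V, v * x = x * v) → x ∈ V) : D = ⊥ := by
  rcases hmin with h | h
  · rw [← h, left_eq_inf]
    exact fun x hx => hself x fun v hv => (Subgroup.commute_of_normal_of_disjoint _ _ hV hD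
      (disjoint_iff.mpr (by rw [inf_comm, h])) v x hv hx).eq
  · exact absurd (IsZGroup.of_injective (Subgroup.inclusion_injective h)) hVZ

/-- The double transpositions and the identity. -/
def k4Set : List (Equiv.Perm (Fin 4)) :=
  [1, Equiv.swap 0 1 * Equiv.swap 2 3, Equiv.swap 0 2 * Equiv.swap 1 3,
    Equiv.swap 0 3 * Equiv.swap 1 2]

/-- The four-group in `S₄`. -/
def k4 : Subgroup (Equiv.Perm (Fin 4)) where
  carrier := {x | x ∈ k4Set}
  one_mem' := by simp [k4Set]
  mul_mem' := by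
    have : ∀ a ∈ k4Set, ∀ b ∈ k4Set, a * b ∈ k4Set := by decide +kernel
    exact fun {a b} ha hb => this a ha b hb
  inv_mem' := by
    have : ∀ a ∈ k4Set, a⁻¹ ∈ k4Set := by decide +kernel
    exact fun {a} ha => this a ha

theorem not_isZGroup_of_exponent_two {Q : Type*} [Group Q] [Finite Q] {a b : Q} (ha : a ^ 2 = 1)
    (hb : b ^ 2 = 1) (hab : a * b = b * a) (ha1 : a ≠ 1) (hb1 : b ≠ 1) (hne : a ≠ b) :
    ¬ IsZGroup Q := by
  intro hZ
  haveI : Fact (Nat.Prime 2) := ⟨Nat.prime_two⟩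
  set B := Subgroup.closure ({a, b} : Set Q)
  haveI : IsMulCommutative B := Subgroup.isMulCommutative_closure (by
    rintro x (rfl | rfl) y (rfl | rfl) <;> first | rfl | exact hab | exact hab.symm)
  have h2 : IsPGroup 2 B := by
    refine fun x => ⟨1, ?_⟩
    obtain ⟨x, hx⟩ := x
    refine Subtype.ext ?_
    show x ^ (2 ^ 1) = 1
    rw [pow_one]
    induction hx using Subgroup.closure_induction with
    | mem y hy => rcases hy with rfl | rfl <;> assumption
    | one => simp
    | mul y z hy' hz' hy hz =>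
      rw [(show Commute y z from congrArg Subtype.val (mul_comm' (⟨y, hy'⟩ : B) ⟨z, hz'⟩)).mul_pow,
        hy, hz, one_mul]
    | inv y _ hy => rw [inv_pow, hy, inv_one]
  haveI := hZ
  haveI := h2.isNilpotent
  haveI : IsCyclic B := inferInstance
  classical
  haveI := Fintype.ofFinite B
  have h4 := IsCyclic.card_pow_eq_one_le (α := B) (n := 2) (by norm_num)
  have : ({(1 : B), ⟨a, Subgroup.subset_closure (by simp)⟩, ⟨b, Subgroup.subset_closure (by simp)⟩} :
      Finset B) ⊆ Finset.univ.filter fun x : B => x ^ 2 = 1 := by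
    intro x hx
    simp only [Finset.mem_insert, Finset.mem_singleton] at hx
    simp only [Finset.mem_filter, Finset.mem_univ, true_and]
    rcases hx with rfl | rfl | rfl <;> exact Subtype.ext (by simp [ha, hb])
  have h5 := (Finset.card_le_card this).trans h4
  rw [Finset.card_insert_of_notMem (by simp [Subtype.ext_iff, ha1.symm, hb1.symm]),
    Finset.card_insert_of_notMem (by simp [Subtype.ext_iff, hne]), Finset.card_singleton] at h5
  omega

theorem perm_four_bot (D : Subgroup (Equiv.Perm (Fin 4))) [D.Normal] [IsZGroup D] : D = ⊥ := by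
  have hn : ∀ g : Equiv.Perm (Fin 4), ∀ v ∈ k4Set, g * v * g⁻¹ ∈ k4Set := by decide +kernel
  haveI : k4.Normal := Subgroup.Normal.mk fun v hv g => hn g v hv
  have hself : ∀ x : Equiv.Perm (Fin 4), (∀ v ∈ k4Set, v * x = x * v) → x ∈ k4Set := by
    decide +kernel
  have hgen : ∀ v ∈ k4Set, v ≠ 1 → ∀ w ∈ k4Set, w = 1 ∨ ∃ g, g * v * g⁻¹ = w := by decide +kernel
  refine eq_bot_of_zgroup D k4 ?_ ?_ hself
  · let a : k4 := ⟨Equiv.swap 0 1 * Equiv.swap 2 3, by show _ ∈ k4Set; simp [k4Set]⟩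
    let b : k4 := ⟨Equiv.swap 0 2 * Equiv.swap 1 3, by show _ ∈ k4Set; simp [k4Set]⟩
    refine not_isZGroup_of_exponent_two (a := a) (b := b) ?_ ?_ ?_ ?_ ?_ ?_
    all_goals simp only [a, b, ne_eq, Subtype.ext_iff, Subgroup.coe_pow, Subgroup.coe_mul,
      Subgroup.coe_one]; decide +kernel
  · by_cases h : D ⊓ k4 = ⊥
    · exact Or.inl h
    · obtain ⟨v, hv, hv1⟩ := (Subgroup.bot_or_exists_ne_one _).resolve_left h
      refine Or.inr fun w hw => ?_
      rcases hgen v hv.2 hv1 w hw with rfl | ⟨g, rfl⟩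
      · exact one_mem _
      · exact Subgroup.Normal.conj_mem inferInstance v hv.1 g

theorem alt_four_bot (D : Subgroup (alternatingGroup (Fin 4))) [D.Normal] [IsZGroup D] : D = ⊥ := by
  have hn : ∀ g : alternatingGroup (Fin 4), ∀ v : alternatingGroup (Fin 4),
      (v : Equiv.Perm (Fin 4)) ∈ k4Set → ((g * v * g⁻¹ : alternatingGroup (Fin 4)) :
        Equiv.Perm (Fin 4)) ∈ k4Set := by decide +kernel
  haveI : (k4.subgroupOf (alternatingGroup (Fin 4))).Normal :=
    Subgroup.Normal.mk fun v hv g => hn g v hv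
  have hself : ∀ x : alternatingGroup (Fin 4), (∀ v : alternatingGroup (Fin 4),
      (v : Equiv.Perm (Fin 4)) ∈ k4Set → v * x = x * v) → (x : Equiv.Perm (Fin 4)) ∈ k4Set := by
    decide +kernel
  have hgen : ∀ v : alternatingGroup (Fin 4), (v : Equiv.Perm (Fin 4)) ∈ k4Set → v ≠ 1 →
      ∀ w : alternatingGroup (Fin 4), (w : Equiv.Perm (Fin 4)) ∈ k4Set →
        w = 1 ∨ ∃ g, g * v * g⁻¹ = w := by decide +kernel
  refine eq_bot_of_zgroup D (k4.subgroupOf _) ?_ ?_ hself
  · let a : k4.subgroupOf (alternatingGroup (Fin 4)) :=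
      ⟨⟨Equiv.swap 0 1 * Equiv.swap 2 3, Equiv.Perm.mem_alternatingGroup.mpr (by decide +kernel)⟩, by show _ ∈ k4Set; simp [k4Set]⟩
    let b : k4.subgroupOf (alternatingGroup (Fin 4)) :=
      ⟨⟨Equiv.swap 0 2 * Equiv.swap 1 3, Equiv.Perm.mem_alternatingGroup.mpr (by decide +kernel)⟩, by show _ ∈ k4Set; simp [k4Set]⟩
    refine not_isZGroup_of_exponent_two (a := a) (b := b) ?_ ?_ ?_ ?_ ?_ ?_
    all_goals simp only [a, b, ne_eq, Subtype.ext_iff, Subgroup.coe_pow, Subgroup.coe_mul,
      Subgroup.coe_one]; decide +kernel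
  · by_cases h : D ⊓ k4.subgroupOf (alternatingGroup (Fin 4)) = ⊥
    · exact Or.inl h
    · obtain ⟨v, hv, hv1⟩ := (Subgroup.bot_or_exists_ne_one _).resolve_left h
      refine Or.inr fun w hw => ?_
      rcases hgen v hv.2 hv1 w hw with rfl | ⟨g, rfl⟩
      · exact one_mem _
      · exact Subgroup.Normal.conj_mem inferInstance v hv.1 g

theorem not_isZGroup_alt_five : ¬ IsZGroup (alternatingGroup (Fin 5)) := by
  let a : alternatingGroup (Fin 5) :=
    ⟨Equiv.swap 0 1 * Equiv.swap 2 3, Equiv.Perm.mem_alternatingGroup.mpr (by decide +kernel)⟩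
  let b : alternatingGroup (Fin 5) :=
    ⟨Equiv.swap 0 2 * Equiv.swap 1 3, Equiv.Perm.mem_alternatingGroup.mpr (by decide +kernel)⟩
  refine not_isZGroup_of_exponent_two (a := a) (b := b) ?_ ?_ ?_ ?_ ?_ ?_
  all_goals simp only [a, b, ne_eq, Subtype.ext_iff, Subgroup.coe_pow, Subgroup.coe_mul,
    Subgroup.coe_one]; decide +kernel

theorem alt_five_bot (D : Subgroup (alternatingGroup (Fin 5))) [hD : D.Normal] [IsZGroup D] :
    D = ⊥ := by
  rcases IsSimpleGroup.eq_bot_or_eq_top_of_normal D hD with h | h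
  · exact h
  · have hf : Function.Injective ((Subgroup.inclusion (le_of_eq h.symm)).comp
        (Subgroup.topEquiv.symm.toMonoidHom : alternatingGroup (Fin 5) →* _)) :=
      (Subgroup.inclusion_injective (le_of_eq h.symm)).comp Subgroup.topEquiv.symm.injective
    exact absurd (IsZGroup.of_injective hf) not_isZGroup_alt_five

theorem perm_five_bot (D : Subgroup (Equiv.Perm (Fin 5))) [hD : D.Normal] [IsZGroup D] : D = ⊥ := by
  refine eq_bot_of_zgroup D (alternatingGroup (Fin 5)) not_isZGroup_alt_five ?_ ?_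
  · rcases IsSimpleGroup.eq_bot_or_eq_top_of_normal (D.subgroupOf (alternatingGroup (Fin 5)))
      inferInstance with h | h
    · exact Or.inl (disjoint_iff.mp (Subgroup.subgroupOf_eq_bot.mp h))
    · exact Or.inr (Subgroup.subgroupOf_eq_top.mp h)
  · have hdec : ∀ x : Equiv.Perm (Fin 5),
        Equiv.swap 0 1 * Equiv.swap 1 2 * x = x * (Equiv.swap 0 1 * Equiv.swap 1 2) →
        Equiv.swap 2 3 * Equiv.swap 3 4 * x = x * (Equiv.swap 2 3 * Equiv.swap 3 4) → x = 1 := by
      decide +kernel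
    intro x hx
    rw [hdec x (hx _ (Equiv.Perm.mem_alternatingGroup.mpr (by decide +kernel)))
      (hx _ (Equiv.Perm.mem_alternatingGroup.mpr (by decide +kernel)))]
    exact one_mem _

/-- Keys of a quaternion subgroup of `SL(2,5)`. -/
def q8Keys : List K5 :=
  [(1, 0, 0, 1), (1, 2, 4, 4), (2, 0, 3, 3), (2, 4, 0, 3), (3, 0, 2, 2), (3, 1, 0, 2), (4, 0, 0, 4),
    (4, 3, 1, 1)]

theorem T5_commutator_step : ∀ e ∈ table, e.1 = (1, 0, 0, 1) ∨ e.1 = (4, 0, 0, 4) ∨
    ((table.map Prod.fst).any fun x =>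
      let t := kmul e.1 (kmul (kmul x (e.1.2.2.2, -e.1.2.1, -e.1.2.2.1, e.1.1))
        (x.2.2.2, -x.2.1, -x.2.2.1, x.1))
      let t2 := kmul t t
      t != (1, 0, 0, 1) && t != (4, 0, 0, 4) &&
        (kmul t2 t == (1, 0, 0, 1) || kmul t2 t == (4, 0, 0, 4))) = true := by
  decide +kernel

theorem o3_conj : ∀ k ∈ o3Keys, ∃ e ∈ table, ∀ y : K5, y = (e.1.2.2.2, -e.1.2.1, -e.1.2.2.1, e.1.1) →
    kmul (kmul y k) e.1 = kA ∨ kmul (kmul y k) e.1 = kmul kA kA := by
  have h : ∀ k ∈ o3Keys, ((table.map Prod.fst).any fun x =>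
      let y := (x.2.2.2, -x.2.1, -x.2.2.1, x.1)
      (kmul (kmul y k) x == kA) || (kmul (kmul y k) x == kmul kA kA)) = true := by decide +kernel
  intro k hk
  obtain ⟨x, hx, hxx⟩ := List.any_eq_true.mp (h k hk)
  obtain ⟨e, he, rfl⟩ := List.mem_map.mp hx
  refine ⟨e, he, fun y hy => ?_⟩
  subst hy
  simpa only [Bool.or_eq_true, beq_iff_eq] using hxx

/-- A normal subgroup of `SL(2,5)` is central or everything. -/
theorem T5_normal_cases (D : Subgroup T5) [hD : D.Normal] :
    (∀ g ∈ D, g = 1 ∨ g = Z5c) ∨ D = ⊤ := by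
  by_cases hall : ∀ g ∈ D, g = 1 ∨ g = Z5c
  · exact Or.inl hall
  push Not at hall
  obtain ⟨g, hg, hg1, hgz⟩ := hall
  right
  obtain ⟨e, he, hek⟩ := exists_entry g
  -- an element of order three in `D`
  obtain ⟨t, ht, htord⟩ : ∃ t ∈ D, orderOf t = 3 := by
    rcases T5_commutator_step e he with h | h | h
    · exact absurd (key_injective ((hek.symm.trans h).trans key_one.symm)) hg1
    · exact absurd (key_injective ((hek.symm.trans h).trans (key_mkT _ _).symm)) hgz
    obtain ⟨x, hx, hxx⟩ := List.any_eq_true.mp h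
    obtain ⟨f, hf, rfl⟩ := List.mem_map.mp hx
    let w : T5 := mkT f.1 (keys_det f hf)
    have hw : key w = f.1 := key_mkT _ _
    have hmem : g * (w * g⁻¹ * w⁻¹) ∈ D := mul_mem hg (hD.conj_mem _ (inv_mem hg) w)
    have hkey : key (g * (w * g⁻¹ * w⁻¹)) =
        kmul e.1 (kmul (kmul f.1 (e.1.2.2.2, -e.1.2.1, -e.1.2.2.1, e.1.1))
          (f.1.2.2.2, -f.1.2.1, -f.1.2.2.1, f.1.1)) := by
      simp only [key_mul, key_inv, hw, ← hek]
    simp only [Bool.and_eq_true, Bool.or_eq_true, beq_iff_eq, bne_iff_ne, ne_eq, ← hkey,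
      ← key_mul] at hxx
    set t := g * (w * g⁻¹ * w⁻¹) with ht
    obtain ⟨⟨h1, h4⟩, h3 | h6⟩ := hxx
    · exact ⟨t, hmem, orderOf_three_of_key (by rw [← key_mul, ← key_mul]; exact h3) h1⟩
    · have h22 : key t ≠ (1, 0, 0, 1) := h1
      have hdiv : ∀ k ∈ table, kmul k.1 k.1 = (1, 0, 0, 1) → k.1 = (1, 0, 0, 1) ∨ k.1 = (4, 0, 0, 4) := by
        decide +kernel
      obtain ⟨k, hk, hkt⟩ := exists_entry t
      have h2 : kmul (key t) (key t) ≠ (1, 0, 0, 1) := fun h => by
        rcases hdiv k hk (by rw [hkt]; exact h) with h' | h' <;> rw [hkt] at h'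
        exacts [h1 h', h4 h']
      have ho : orderOf t = 6 := orderOf_six_of_key (by rw [← key_mul, ← key_mul]; exact h6) h2
      refine ⟨t ^ 2, pow_mem hmem 2, ?_⟩
      rw [orderOf_pow' t two_ne_zero, ho]; norm_num
  -- all elements of order three lie in `D`
  have hA : A5 ∈ D := by
    obtain ⟨f, hf, hff⟩ := o3_conj (key t) (mem_o3Keys htord)
    let w : T5 := mkT f.1 (keys_det f hf)
    have hw : key w = f.1 := key_mkT _ _
    have hmem : w⁻¹ * t * w ∈ D := by simpa using hD.conj_mem _ ht w⁻¹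
    have hkey : key (w⁻¹ * t * w) =
        kmul (kmul (f.1.2.2.2, -f.1.2.1, -f.1.2.2.1, f.1.1) (key t)) f.1 := by
      simp only [key_mul, key_inv, hw]
    rcases hff _ rfl with h | h <;> rw [← hkey] at h
    · rwa [key_injective (h.trans key_A5.symm)] at hmem
    · rw [key_injective (h.trans (by rw [key_mul, key_A5] : key (A5 * A5) = _).symm)] at hmem
      have h3 : A5 * A5 * (A5 * A5) = A5 := by
        have := pow_orderOf_eq_one A5
        rw [orderOf_A5, pow_succ, pow_two] at this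
        rw [← mul_assoc, this, one_mul]
      rw [← h3]; exact mul_mem hmem hmem
  have hall' : ∀ s : T5, orderOf s = 3 → s ∈ D := fun s hs => by
    obtain ⟨f, hf, hff⟩ := o3_conj (key s) (mem_o3Keys hs)
    let w : T5 := mkT f.1 (keys_det f hf)
    have hw : key w = f.1 := key_mkT _ _
    have hkey : key (w⁻¹ * s * w) =
        kmul (kmul (f.1.2.2.2, -f.1.2.1, -f.1.2.2.1, f.1.1) (key s)) f.1 := by
      simp only [key_mul, key_inv, hw]
    have hmem : w⁻¹ * s * w ∈ D := by
      rcases hff _ rfl with h | h <;> rw [← hkey] at h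
      · rwa [key_injective (h.trans key_A5.symm)]
      · rw [key_injective (h.trans (by rw [key_mul, key_A5] : key (A5 * A5) = _).symm)]
        exact mul_mem hA hA
    simpa [mul_assoc] using hD.conj_mem _ hmem w
  rw [eq_top_iff, ← closure_AB, Subgroup.closure_le]
  rintro x (rfl | rfl)
  exacts [hA, hall' _ orderOf_B5]

theorem T5_perfect : commutator T5 = ⊤ := by
  rcases T5_normal_cases (commutator T5) with h | h
  · exfalso
    have hm : A5 * B5 * A5⁻¹ * B5⁻¹ ∈ commutator T5 :=
      Subgroup.commutator_mem_commutator (Subgroup.mem_top A5) (Subgroup.mem_top B5)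
    rcases h _ hm with h' | h' <;>
    · have := congrArg key h'
      simp only [key_mul, key_inv, key_A5, key_B5, key_one, Z5c, key_mkT] at this
      revert this; decide
  · exact h

/-- A quaternion subgroup of `SL(2,5)`. -/
def q8Sub : Subgroup T5 where
  carrier := {g | key g ∈ q8Keys}
  one_mem' := by show key 1 ∈ q8Keys; rw [key_one]; decide +kernel
  mul_mem' := by
    have : ∀ a ∈ q8Keys, ∀ b ∈ q8Keys, kmul a b ∈ q8Keys := by decide +kernel
    intro a b ha hb
    show key (a * b) ∈ q8Keys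
    rw [key_mul]; exact this _ ha _ hb
  inv_mem' := by
    have : ∀ a ∈ q8Keys, ((a.2.2.2, -a.2.1, -a.2.2.1, a.1) : K5) ∈ q8Keys := by decide +kernel
    intro a ha
    show key a⁻¹ ∈ q8Keys
    rw [key_inv]; exact this _ ha

theorem card_q8Sub : Nat.card q8Sub = 8 := by
  rw [show Nat.card q8Sub = Nat.card (q8Sub : Set T5) from rfl,
    ← Nat.card_image_of_injective key_injective (q8Sub : Set T5)]
  have : key '' (q8Sub : Set T5) = (q8Keys.toFinset : Set K5) := by
    ext k
    rw [List.coe_toFinset]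
    refine ⟨?_, fun hk => ?_⟩
    · rintro ⟨g, hg, rfl⟩; exact hg
    · have hd : ∀ k ∈ q8Keys, kdet k = 1 := by decide +kernel
      exact ⟨mkT k (hd k hk), (by show key _ ∈ q8Keys; rw [key_mkT]; exact hk), key_mkT _ _⟩
  rw [this, Nat.card_coe_set_eq, Set.ncard_coe_finset]
  decide +kernel

theorem A5_normalizes : A5 ∈ Subgroup.normalizer (q8Sub : Set T5) := by
  refine Subgroup.mem_normalizer_iff.mpr fun g => ?_
  have h1 : ∀ a ∈ q8Keys, kmul (kmul kA a) (kA.2.2.2, -kA.2.1, -kA.2.2.1, kA.1) ∈ q8Keys := by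
    decide +kernel
  have h2 : ∀ a ∈ q8Keys, kmul (kmul (kA.2.2.2, -kA.2.1, -kA.2.2.1, kA.1) a) kA ∈ q8Keys := by
    decide +kernel
  constructor
  · intro hg
    show key (A5 * g * A5⁻¹) ∈ q8Keys
    rw [key_mul, key_mul, key_inv, key_A5]; exact h1 _ hg
  · intro hg
    have := h2 _ hg
    show key g ∈ q8Keys
    rw [← key_A5, ← key_inv, ← key_mul, ← key_mul] at this
    simpa [mul_assoc] using this

end Cfsg.Agent.FGS4.Zass
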