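/-
Zassenhaus: the six possible quotients of a Frobenius complement by its Z-radical.
-/
import Cfsg.Agent.FGS4.Zass.Small
import Cfsg.Agent.Transfer.QuaternionSection
import Cfsg.Agent.Core.MinimalNormal

set_option autoImplicit false
set_option linter.style.haveILetI false

namespace Cfsg.Agent.FGS4.Zass

open Cfsg (pCore pPrimeCore)
open scoped Pointwise

/-- A subgroup of small index of the symmetric group is everything or the alternating group. -/
theorem perm_range_cases {G : Type*} [Group G] {n : ℕ} (hn : 2 ≤ n) (f : G →* Equiv.Perm (Fin n))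
    (h : Nat.factorial n ≤ 2 * Nat.card f.range) :
    (∃ g : G →* Equiv.Perm (Fin n), Function.Surjective g ∧ g.ker = f.ker) ∨
      ∃ g : G →* alternatingGroup (Fin n), Function.Surjective g ∧ g.ker = f.ker := by
  haveI : Nontrivial (Fin n) := Fin.nontrivial_iff_two_le.mpr hn
  have hcard : f.range.index * Nat.card f.range = Nat.factorial n := by
    rw [Subgroup.index_mul_card, Nat.card_perm, Nat.card_fin]
  have hpos : 0 < Nat.card f.range := Nat.card_pos
  have hle : f.range.index ≤ 2 := Nat.le_of_mul_le_mul_right (hcard ▸ h) hpos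
  have h0 : f.range.index ≠ 0 := Subgroup.index_ne_zero_of_finite
  rcases (show f.range.index = 1 ∨ f.range.index = 2 by omega) with h1 | h2
  · left
    exact ⟨f, MonoidHom.range_eq_top.mp (Subgroup.index_eq_one.mp h1), rfl⟩
  · right
    have hr : f.range = alternatingGroup (Fin n) :=
      Equiv.Perm.eq_alternatingGroup_of_index_eq_two h2
    refine ⟨f.codRestrict _ (fun x => hr ▸ ⟨x, rfl⟩), ?_, ?_⟩
    · rintro ⟨y, hy⟩
      rw [← hr] at hy
      obtain ⟨x, rfl⟩ := hy
      exact ⟨x, rfl⟩
    · exact MonoidHom.ker_codRestrict _ _ _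

/-- Normal Z-subgroups of `Q` are trivial, and `Q` is not small. -/
structure IsBigType (Q : Type*) [Group Q] : Prop where
  bot : ∀ (D : Subgroup Q) [D.Normal] [IsZGroup D], D = ⊥
  card : 4 < Nat.card Q

theorem bigType_alt_four : IsBigType (alternatingGroup (Fin 4)) :=
  ⟨alt_four_bot, by rw [nat_card_alternatingGroup, Nat.card_fin]; decide⟩

theorem bigType_perm_four : IsBigType (Equiv.Perm (Fin 4)) :=
  ⟨perm_four_bot, by rw [Nat.card_perm, Nat.card_fin]; decide⟩

theorem bigType_alt_five : IsBigType (alternatingGroup (Fin 5)) :=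
  ⟨alt_five_bot, by rw [nat_card_alternatingGroup, Nat.card_fin]; decide⟩

theorem bigType_perm_five : IsBigType (Equiv.Perm (Fin 5)) :=
  ⟨perm_five_bot, by rw [Nat.card_perm, Nat.card_fin]; decide⟩

theorem not_isZGroup_dihedral : ¬ IsZGroup (DihedralGroup 2) := by
  refine not_isZGroup_of_exponent_two (a := DihedralGroup.r 1) (b := DihedralGroup.sr 0)
    ?_ ?_ ?_ ?_ ?_ ?_ <;> decide

theorem IsBigType.not_isZGroup {Q : Type*} [Group Q] [Finite Q] (h : IsBigType Q) :
    ¬ IsZGroup Q := by
  intro hZ
  haveI := hZ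
  have hbot : (⊤ : Subgroup Q) = ⊥ := h.bot ⊤
  have := h.card
  rw [← Subgroup.card_top, hbot, Subgroup.card_bot] at this
  omega

/-- The five quotients of the theorem. -/
def QuotType {G : Type*} [Group G] (N : Subgroup G) : Prop :=
  N = ⊤ ∨
    (∃ f : G →* DihedralGroup 2, Function.Surjective f ∧ f.ker = N) ∨
    (∃ f : G →* alternatingGroup (Fin 4), Function.Surjective f ∧ f.ker = N) ∨
    (∃ f : G →* Equiv.Perm (Fin 4), Function.Surjective f ∧ f.ker = N) ∨
    (∃ f : G →* alternatingGroup (Fin 5), Function.Surjective f ∧ f.ker = N) ∨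
    (∃ f : G →* Equiv.Perm (Fin 5), Function.Surjective f ∧ f.ker = N)

theorem quotType_cases {G : Type*} [Group G] {N : Subgroup G} (h : QuotType N) :
    N = ⊤ ∨ (∃ f : G →* DihedralGroup 2, Function.Surjective f ∧ f.ker = N) ∨
      ∃ (Q : Type) (_ : Group Q) (_ : Finite Q) (f : G →* Q),
        IsBigType Q ∧ Function.Surjective f ∧ f.ker = N := by
  rcases h with h | h | ⟨f, h⟩ | ⟨f, h⟩ | ⟨f, h⟩ | ⟨f, h⟩
  · exact Or.inl h
  · exact Or.inr (Or.inl h)
  · exact Or.inr (Or.inr ⟨_, inferInstance, inferInstance, f, bigType_alt_four, h⟩)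
  · exact Or.inr (Or.inr ⟨_, inferInstance, inferInstance, f, bigType_perm_four, h⟩)
  · exact Or.inr (Or.inr ⟨_, inferInstance, inferInstance, f, bigType_alt_five, h⟩)
  · exact Or.inr (Or.inr ⟨_, inferInstance, inferInstance, f, bigType_perm_five, h⟩)

theorem le_ker_of_bigType {G Q : Type*} [Group G] [Finite G] [Group Q] {f : G →* Q}
    (hf : Function.Surjective f) (hQ : IsBigType Q) (N : Subgroup G) [hN : N.Normal] [IsZGroup N] :
    N ≤ f.ker := by
  haveI : (N.map f).Normal := hN.map f hf
  haveI : IsZGroup (N.map f) := IsZGroup.of_surjective (f.subgroupMap_surjective N)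
  exact (Subgroup.map_eq_bot_iff N).mp (hQ.bot (N.map f))

namespace FPFRep

variable {G V : Type*} [Group G] [Finite G] [AddCommGroup V] [Module ℂ V] [FiniteDimensional ℂ V]
  [Nontrivial V] (F : FPFRep G V)
include F

theorem exists_quat_sylow (hZ : ¬ IsZGroup G) :
    ∃ (P : Sylow 2 G) (n : ℕ), 1 ≤ n ∧ Nonempty (P ≃* QuaternionGroup (2 ^ n)) := by
  haveI : Fact (Nat.Prime 2) := ⟨Nat.prime_two⟩
  by_contra hne
  refine hZ ⟨fun p hp P => ?_⟩
  haveI := Fact.mk hp
  rcases F.sylow_cases P with h | ⟨rfl, n, ⟨e⟩⟩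
  · exact h
  · rcases n with _ | n
    · haveI : IsCyclic (QuaternionGroup (2 ^ 0)) :=
        isCyclic_of_orderOf_eq_card (QuaternionGroup.xa 0) (by
          rw [QuaternionGroup.orderOf_xa, Nat.card_eq_fintype_card, QuaternionGroup.card, pow_zero,
            mul_one])
      exact isCyclic_of_injective e.toMonoidHom e.injective
    · exact absurd ⟨P, n + 1, by omega, ⟨e⟩⟩ hne

theorem isZGroup_of_two (N : Subgroup G)
    (h : ∀ Q : Sylow 2 N, IsCyclic Q) : IsZGroup N := by
  refine ⟨fun p hp P => ?_⟩
  haveI := Fact.mk hp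
  rcases (F.res N).sylow_cases P with h' | ⟨rfl, -⟩
  · exact h'
  · exact h P

/-- A subgroup mapping into a cyclic subgroup modulo an odd-order normal subgroup is a Z-group. -/
theorem isZGroup_of_quot {K : Subgroup G} [K.Normal] (hK : ¬ 2 ∣ Nat.card K) (N : Subgroup G)
    (C : Subgroup (G ⧸ K)) [IsCyclic C] (h : ∀ x ∈ N, (x : G ⧸ K) ∈ C) : IsZGroup N := by
  refine F.isZGroup_of_two N fun Q => ?_
  let g : (Q : Subgroup N) →* C :=
    (((QuotientGroup.mk' K).comp N.subtype).comp (Q : Subgroup N).subtype).codRestrict C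
      fun x => h _ (x : N).2
  refine isCyclic_of_injective g ((injective_iff_map_eq_one g).mpr fun x hx => ?_)
  have hxK : ((x : N) : G) ∈ K :=
    (QuotientGroup.eq_one_iff _).mp (congrArg Subtype.val hx)
  haveI : Fact (Nat.Prime 2) := ⟨Nat.prime_two⟩
  obtain ⟨k, hk⟩ := IsPGroup.iff_orderOf.mp Q.2 x
  have hd : orderOf ((x : N) : G) ∣ Nat.card K := by
    rw [← Subgroup.orderOf_mk _ hxK]; exact orderOf_dvd_natCard _
  rw [Subgroup.orderOf_coe, Subgroup.orderOf_coe, hk] at hd
  rcases Nat.eq_zero_or_pos k with rfl | hk0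
  · rw [pow_zero] at hk; exact orderOf_eq_one_iff.mp hk
  · exact absurd ((dvd_pow_self 2 hk0.ne').trans hd) hK

theorem exists_quot_of_solvable [Group.IsSolvable G] (hZ : ¬ IsZGroup G) :
    ∃ N : Subgroup G, N.Normal ∧ IsZGroup N ∧ QuotType N := by
  classical
  haveI : Fact (Nat.Prime 2) := ⟨Nat.prime_two⟩
  obtain ⟨P, n, hn, ⟨e⟩⟩ := F.exists_quat_sylow hZ
  set K := pPrimeCore 2 G with hKdef
  have hK : ¬ 2 ∣ Nat.card K := Core.not_dvd_card_pPrimeCore 2 G
  let π := QuotientGroup.mk' K
  have hπ : Function.Surjective π := QuotientGroup.mk'_surjective K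
  haveI : Group.IsSolvable (G ⧸ K) := solvable_of_surjective hπ
  have hinj : Function.Injective (π.comp (P : Subgroup G).subtype) :=
    (injective_iff_map_eq_one _).mpr fun x hx => by
      have hxK : (x : G) ∈ K := (QuotientGroup.eq_one_iff _).mp hx
      obtain ⟨k, hk⟩ := IsPGroup.iff_orderOf.mp P.2 x
      have hd : orderOf (x : G) ∣ Nat.card K := by
        rw [← Subgroup.orderOf_mk _ hxK]; exact orderOf_dvd_natCard _
      rw [Subgroup.orderOf_coe, hk] at hd
      rcases Nat.eq_zero_or_pos k with rfl | hk0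
      · rw [pow_zero] at hk; exact orderOf_eq_one_iff.mp hk
      · exact absurd ((dvd_pow_self 2 hk0.ne').trans hd) hK
  set P' : Sylow 2 (G ⧸ K) := P.mapSurjective hπ with hP'
  have hPr : (π.comp (P : Subgroup G).subtype).range = (P' : Subgroup (G ⧸ K)) := by
    rw [MonoidHom.range_comp, Subgroup.range_subtype, hP', Sylow.coe_mapSurjective]
  let e' : (P' : Subgroup (G ⧸ K)) ≃* QuaternionGroup (2 ^ n) :=
    ((MonoidHom.ofInjective hinj).trans (MulEquiv.subgroupCongr hPr)).symm.trans e
  set R := pCore 2 (G ⧸ K) with hRdef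
  have hC : Subgroup.centralizer (R : Set (G ⧸ K)) ≤ R :=
    Core.centralizer_pCore_le_of_isSolvable (Core.pPrimeCore_quotient_pPrimeCore 2 G)
  by_cases hall : ∀ g : G ⧸ K, Odd (orderOf g) → g ∈ Subgroup.centralizer (R : Set (G ⧸ K))
  · have hp : IsPGroup 2 (G ⧸ K) := by
      intro g
      set a := (orderOf g).factorization 2
      have hodd : Odd (orderOf (g ^ 2 ^ a)) := by
        rw [orderOf_pow' g (pow_ne_zero _ two_ne_zero),
          Nat.gcd_eq_right (Nat.ordProj_dvd (orderOf g) 2), Nat.odd_iff,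
          ← Nat.two_dvd_ne_zero]
        exact Nat.not_dvd_ordCompl Nat.prime_two (orderOf_pos g).ne'
      obtain ⟨k, hk⟩ := IsPGroup.iff_orderOf.mp (Core.isPGroup_pCore 2 (G ⧸ K))
        ⟨_, hC (hall _ hodd)⟩
      rw [Subgroup.orderOf_mk] at hk
      rw [hk] at hodd
      rcases Nat.eq_zero_or_pos k with rfl | hk0
      · rw [pow_zero] at hk; exact ⟨a, orderOf_eq_one_iff.mp hk⟩
      · exact absurd (dvd_pow_self 2 hk0.ne') (Nat.two_dvd_ne_zero.mpr (Nat.odd_iff.mp hodd))
    have htop : (P' : Subgroup (G ⧸ K)) = ⊤ :=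
      (P'.3 (hp.to_subgroup ⊤) le_top).symm
    let E : (G ⧸ K) ≃* QuaternionGroup (2 ^ n) :=
      (Subgroup.topEquiv.symm.trans (MulEquiv.subgroupCongr htop.symm)).trans e'
    have hev : Even (2 ^ n) := (Nat.even_pow.mpr ⟨even_two, by omega⟩)
    let f : G →* DihedralGroup 2 := ((quatV hev).comp E.toMonoidHom).comp π
    have hf : Function.Surjective f := ((quatV_surjective hev).comp E.surjective).comp hπ
    haveI : NeZero (2 ^ n) := ⟨by positivity⟩
    haveI : IsCyclic ((quatV hev).ker.map E.symm.toMonoidHom) :=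
      haveI := quatV_ker_isCyclic hev
      isCyclic_of_surjective _ (E.symm.toMonoidHom.subgroupMap_surjective _)
    refine ⟨f.ker, inferInstance, F.isZGroup_of_quot hK f.ker
      ((quatV hev).ker.map E.symm.toMonoidHom) (fun x hx => ?_), Or.inr (Or.inl ⟨f, hf, rfl⟩)⟩
    exact ⟨E (x : G ⧸ K), hx, E.symm_apply_apply _⟩
  · push Not at hall
    obtain ⟨g, hgodd, hgC⟩ := hall
    have hgN : g ∈ Subgroup.normalizer (R : Set (G ⧸ K)) := by
      rw [Subgroup.normalizer_eq_top]; exact Subgroup.mem_top g
    obtain ⟨ι, hι, hr⟩ := Transfer.QSec.exists_q8 e' (Core.pCore_le_sylow P') hgN hgodd hgC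
    let e8 : QuaternionGroup 2 ≃* R := (MonoidHom.ofInjective hι).trans (MulEquiv.subgroupCongr hr)
    obtain ⟨e4⟩ := Cfsg.Agent.S3742.result
    let κ : G ⧸ K →* Equiv.Perm (Fin 4) :=
      (e4.toMonoidHom.comp (MulAut.congr e8.symm).toMonoidHom).comp MulAut.conjNormal
    have hker : ∀ x, x ∈ κ.ker ↔ x ∈ Subgroup.centralizer (R : Set (G ⧸ K)) := by
      intro x
      rw [MonoidHom.mem_ker]
      constructor
      · intro hx r hr'
        have h1 : MulAut.conjNormal (H := R) x = 1 :=
          (MulAut.congr e8.symm).injective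
            (e4.injective (hx.trans ((map_one e4).symm.trans (congrArg e4 (map_one _).symm))))
        have := congrArg Subtype.val (MulEquiv.congr_fun h1 ⟨r, hr'⟩)
        exact (mul_inv_eq_iff_eq_mul.mp this).symm
      · intro hx
        have h1 : MulAut.conjNormal (H := R) x = 1 := by
          ext r
          exact mul_inv_eq_iff_eq_mul.mpr (hx r r.2).symm
        show e4 (MulAut.congr e8.symm (MulAut.conjNormal x)) = 1
        rw [h1, map_one, map_one]
    have hzc : ∀ x : κ.ker, (x : G ⧸ K) ∈ R := fun x => hC ((hker _).mp x.2)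
    have hκ2 : Nat.card κ.ker ≤ 2 := by
      have hdec : ∀ q : QuaternionGroup 2, (∀ w, w * q = q * w) →
          q = 1 ∨ q = QuaternionGroup.a 2 := by decide +kernel
      let i : κ.ker → Bool := fun x => decide (e8.symm ⟨x, hzc x⟩ = 1)
      refine le_trans (Nat.card_le_card_of_injective i fun x y hxy => ?_) (by simp)
      have hcen : ∀ x : κ.ker, e8.symm ⟨x, hzc x⟩ = 1 ∨
          e8.symm ⟨x, hzc x⟩ = QuaternionGroup.a 2 := fun x => hdec _ fun w => by
        apply e8.injective
        rw [map_mul, map_mul, e8.apply_symm_apply]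
        exact Subtype.ext ((hker _).mp x.2 _ (e8 w).2)
      have heq : e8.symm ⟨x, hzc x⟩ = e8.symm ⟨y, hzc y⟩ := by
        simp only [i, decide_eq_decide] at hxy
        rcases hcen x with hx | hx <;> rcases hcen y with hy | hy <;> rw [hx, hy]
        · exact absurd (hxy.mp hx) (by rw [hy]; decide)
        · exact absurd (hxy.mpr hy) (by rw [hx]; decide)
      exact Subtype.ext (congrArg Subtype.val (e8.symm.injective heq) :)
    have hR8 : Nat.card R = 8 := by
      rw [← Nat.card_congr e8.toEquiv, Nat.card_eq_fintype_card, QuaternionGroup.card]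
    have h4 : 4 ∣ Nat.card κ.range := by
      have h1 := Subgroup.card_dvd_of_le (show (R.map κ) ≤ κ.range from Subgroup.map_le_range _ _)
      refine dvd_trans ?_ h1
      have hpgR : IsPGroup 2 (R.map κ) := (Core.isPGroup_pCore 2 _).map κ
      have h3 : 4 ≤ Nat.card (R.map κ) := by
        have h8 : Nat.card R ≤ Nat.card (R.map κ) * 2 := by
          calc Nat.card R = Nat.card (κ.subgroupMap R).range * Nat.card (κ.subgroupMap R).ker := by
                rw [← Subgroup.index_ker, Subgroup.index_mul_card]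
            _ ≤ Nat.card (R.map κ) * 2 := by
                refine Nat.mul_le_mul (Subgroup.card_le_card_group _) (le_trans ?_ hκ2)
                refine Nat.card_le_card_of_injective (fun x => (⟨((x : R) : G ⧸ K),
                  (congrArg Subtype.val x.2 : κ ((x : R) : G ⧸ K) = 1)⟩ : κ.ker)) ?_
                exact fun x y h => Subtype.ext (Subtype.ext (congrArg Subtype.val h :))
        omega
      obtain ⟨k, hk⟩ := IsPGroup.iff_card.mp hpgR
      rw [hk] at h3 ⊢
      rcases k with _ | _ | k
      · norm_num at h3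
      · norm_num at h3
      · exact ⟨2 ^ k, by ring⟩
    have h3' : 3 ∣ Nat.card κ.range := by
      have hne : κ g ≠ 1 := fun h => hgC ((hker g).mp h)
      have hd : orderOf (κ g) ∣ Nat.card κ.range := by
        rw [← Subgroup.orderOf_mk (κ g) (show κ g ∈ κ.range from ⟨g, rfl⟩)]; exact orderOf_dvd_natCard _
      refine dvd_trans ?_ hd
      have h24 : orderOf (κ g) ∣ 24 := by
        have := orderOf_dvd_natCard (κ g)
        rwa [Nat.card_perm, Nat.card_fin] at this
      have hodd : Odd (orderOf (κ g)) := hgodd.of_dvd_nat (orderOf_map_dvd κ g)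
      have h1 : orderOf (κ g) ≠ 1 := fun h => hne (orderOf_eq_one_iff.mp h)
      have h3 : orderOf (κ g) ∣ 3 :=
        (Nat.Coprime.pow_right 3 (Nat.coprime_two_right.mpr hodd)).dvd_of_dvd_mul_left
          (show orderOf (κ g) ∣ 2 ^ 3 * 3 from h24)
      rw [(Nat.dvd_prime Nat.prime_three).mp h3 |>.resolve_left h1]
    have h12 : 12 ≤ Nat.card κ.range :=
      Nat.le_of_dvd Nat.card_pos ((Nat.Coprime.mul_dvd_of_dvd_of_dvd (by norm_num) h4 h3'))
    have hκr : (κ.comp π).range = κ.range := by
      rw [MonoidHom.range_comp, MonoidHom.range_eq_top.mpr hπ, ← MonoidHom.range_eq_map]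
    haveI : IsCyclic κ.ker := by
      rcases Nat.lt_or_ge (Nat.card κ.ker) 2 with hlt | hge
      · haveI : Subsingleton κ.ker := Finite.card_le_one_iff_subsingleton.mp (by omega)
        infer_instance
      · exact isCyclic_of_prime_card (p := 2) (le_antisymm hκ2 hge)
    have hNZ : IsZGroup (κ.comp π).ker := F.isZGroup_of_quot hK _ κ.ker fun x hx => hx
    refine ⟨(κ.comp π).ker, inferInstance, hNZ, ?_⟩
    rcases perm_range_cases (by norm_num) (κ.comp π)
        (by rw [hκr, show Nat.factorial 4 = 24 from rfl]; omega) with ⟨f, hf, hk⟩ | ⟨f, hf, hk⟩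
    · exact Or.inr (Or.inr (Or.inr (Or.inl ⟨f, hf, hk⟩)))
    · exact Or.inr (Or.inr (Or.inl ⟨f, hf, hk⟩))

theorem centralizer_no_four {S : Subgroup G} (ψ : S ≃* T5) :
    ∀ c ∈ Subgroup.centralizer (S : Set G), orderOf c ≠ 4 := by
  set C := Subgroup.centralizer (S : Set G) with hCdef
  have hSC : ∀ c ∈ C, ∀ hc : c ∈ S, ψ ⟨c, hc⟩ = 1 ∨ ψ ⟨c, hc⟩ = Z5c := fun c hcC hc => by
    have hgen : ∀ t : T5, ψ ⟨c, hc⟩ * t = t * ψ ⟨c, hc⟩ := fun t => by
      apply ψ.symm.injective
      rw [map_mul, map_mul, MulEquiv.symm_apply_apply]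
      exact Subtype.ext (hcC _ (ψ.symm t).2).symm
    exact eq_of_commute_gens (hgen A5) (hgen B5)
  have hno4 : ∀ c ∈ C, orderOf c ≠ 4 := fun c hc hco => by
    set i : G := ((ψ.symm (A5 * Y5) : S) : G) with hidef
    have hi : orderOf i = 4 := by
      rw [hidef, Subgroup.orderOf_coe, MulEquiv.orderOf_eq, orderOf_A5Y5]
    have hsq : ∀ x : G, orderOf x = 4 → orderOf (x ^ 2) = 2 := fun x hx => by
      rw [orderOf_pow' x two_ne_zero, hx]; norm_num
    have e2 : c ^ 2 = i ^ 2 := F.eq_of_orderOf_two (hsq c hco) (hsq i hi)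
    have hci : Commute c i := (hc i (ψ.symm (A5 * Y5)).2).symm
    have h1' : (c * i⁻¹) ^ 2 = 1 := by
      rw [hci.inv_right.mul_pow, inv_pow, e2, mul_inv_cancel]
    have hmem : c * i⁻¹ ∈ S := by
      by_cases h : c * i⁻¹ = 1
      · rw [h]; exact one_mem _
      · exact F.central_involution_mem ψ (orderOf_eq_prime h1' h)
    have hcS : c ∈ S := inv_mul_cancel_right c i ▸ mul_mem hmem (ψ.symm (A5 * Y5)).2
    have ho : orderOf (ψ ⟨c, hcS⟩) = 4 := by
      rw [MulEquiv.orderOf_eq, Subgroup.orderOf_mk, hco]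
    rcases hSC c hc hcS with h | h <;> rw [h] at ho
    · rw [orderOf_one] at ho; omega
    · rw [orderOf_Z5c] at ho; omega
  exact hno4

theorem exists_perm_five {S : Subgroup G} [hSn : S.Normal] (ψ : S ≃* T5) :
    ∃ φ : G →* Equiv.Perm (Fin 5), φ.ker = Subgroup.centralizer (S : Set G) ∧
      Nat.factorial 5 ≤ 2 * Nat.card φ.range := by
  classical
  haveI : Fact (Nat.Prime 2) := ⟨Nat.prime_two⟩
  set C := Subgroup.centralizer (S : Set G) with hCdef
  haveI : C.Normal := inferInstance
  have hSC : ∀ c ∈ C, ∀ hc : c ∈ S, ψ ⟨c, hc⟩ = 1 ∨ ψ ⟨c, hc⟩ = Z5c := fun c hcC hc => by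
    have hgen : ∀ t : T5, ψ ⟨c, hc⟩ * t = t * ψ ⟨c, hc⟩ := fun t => by
      apply ψ.symm.injective
      rw [map_mul, map_mul, MulEquiv.symm_apply_apply]
      exact Subtype.ext (hcC _ (ψ.symm t).2).symm
    exact eq_of_commute_gens (hgen A5) (hgen B5)
  -- the five Sylow 2-subgroups of S
  set H8 : Subgroup S := q8Sub.map ψ.symm.toMonoidHom with hH8
  have hcardS : Nat.card S = 120 := (Nat.card_congr ψ.toEquiv).trans card_T5
  have hH8c : Nat.card H8 = 8 := by
    rw [hH8, Subgroup.card_map_of_injective ψ.symm.injective, card_q8Sub]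
  have hfac : (120 : ℕ).factorization 2 = 3 := by
    rw [show (120 : ℕ) = 2 ^ 3 * 15 by norm_num, Nat.factorization_mul (by norm_num) (by norm_num),
      Finsupp.add_apply, Nat.prime_two.factorization_pow, Finsupp.single_eq_same,
      Nat.factorization_eq_zero_of_not_dvd (by norm_num)]
  let P8 : Sylow 2 S := Sylow.ofCard H8 (by rw [hcardS, hfac, hH8c]; norm_num)
  set NS := Subgroup.normalizer (H8 : Set S) with hNS
  have h5 : Nat.card (Sylow 2 S) = 5 := by
    rw [P8.card_eq_index_normalizer]
    show NS.index = 5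
    have hA : ψ.symm A5 ∈ NS :=
      Subgroup.le_normalizer_map ψ.symm.toMonoidHom ⟨A5, A5_normalizes, rfl⟩
    have h3 : 3 ∣ Nat.card NS := by
      rw [show (3 : ℕ) = orderOf (⟨ψ.symm A5, hA⟩ : NS) by
        rw [Subgroup.orderOf_mk, MulEquiv.orderOf_eq, orderOf_A5]]
      exact orderOf_dvd_natCard _
    have h8 : 8 ∣ Nat.card NS := hH8c ▸ Subgroup.card_dvd_of_le Subgroup.le_normalizer
    have hmul : NS.index * Nat.card NS = 120 := by rw [Subgroup.index_mul_card, hcardS]
    obtain ⟨k, hk⟩ : 24 ∣ Nat.card NS :=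
      Nat.Coprime.mul_dvd_of_dvd_of_dvd (show Nat.Coprime 8 3 by norm_num) h8 h3
    have hd5 : NS.index ∣ 5 := ⟨k, by
      rw [hk] at hmul
      have : NS.index * (24 * k) = 24 * (NS.index * k) := by ring
      omega⟩
    rcases (Nat.dvd_prime (by norm_num : Nat.Prime 5)).mp hd5 with h1 | h1
    · exfalso
      rw [hNS, Subgroup.index_eq_one, Subgroup.normalizer_eq_top_iff] at h1
      haveI := h1
      haveI : q8Sub.Normal := by
        have h2 := h1.map ψ.toMonoidHom ψ.surjective
        rwa [hH8, Subgroup.map_map, show ψ.toMonoidHom.comp ψ.symm.toMonoidHom = MonoidHom.id T5 from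
          MonoidHom.ext fun t => ψ.apply_symm_apply t, Subgroup.map_id] at h2
      rcases T5_normal_cases q8Sub with h | h
      · have hle : Nat.card q8Sub ≤ 2 := by
          let i : q8Sub → Bool := fun x => decide ((x : T5) = 1)
          refine le_trans (Nat.card_le_card_of_injective i fun x y hxy => ?_) (by simp)
          simp only [i, decide_eq_decide] at hxy
          apply Subtype.ext
          rcases h _ x.2 with hx | hx <;> rcases h _ y.2 with hy | hy <;>
            first
              | exact hx.trans hy.symm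
              | exact (hxy.mp hx).symm ▸ hx
              | exact (hxy.mpr hy).trans hy.symm
        rw [card_q8Sub] at hle; omega
      · have := card_q8Sub
        rw [h, Subgroup.card_top, card_T5] at this; omega
    · exact h1
  let σ : Sylow 2 S ≃ Fin 5 := Finite.equivFinOfCardEq h5
  let φ0 : G →* Equiv.Perm (Sylow 2 S) :=
    (MulAction.toPermHom (MulAut S) (Sylow 2 S)).comp MulAut.conjNormal
  let φ : G →* Equiv.Perm (Fin 5) := σ.permCongrHom.toMonoidHom.comp φ0
  haveI : (φ.ker.subgroupOf S).Normal := inferInstance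
  have hSperf : commutator S = ⊤ := by
    rw [commutator_def, ← Subgroup.map_top_of_surjective ψ.symm.toMonoidHom ψ.symm.surjective,
      ← Subgroup.map_commutator, ← commutator_def, T5_perfect]
  have hLS : ∀ x ∈ φ.ker, ∀ hx : x ∈ S, ψ ⟨x, hx⟩ = 1 ∨ ψ ⟨x, hx⟩ = Z5c := by
    haveI : ((φ.ker.subgroupOf S).map ψ.toMonoidHom).Normal :=
      (inferInstance : (φ.ker.subgroupOf S).Normal).map _ ψ.surjective
    rcases T5_normal_cases ((φ.ker.subgroupOf S).map ψ.toMonoidHom) with h | h
    · exact fun x hx hxS => h _ ⟨⟨x, hxS⟩, hx, rfl⟩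
    · exfalso
      have hfix : ∀ s : S, φ0 s = 1 := fun s => by
        obtain ⟨t, ht, hts⟩ : ψ s ∈ (φ.ker.subgroupOf S).map ψ.toMonoidHom := h ▸ Subgroup.mem_top _
        obtain rfl : t = s := ψ.injective hts
        exact σ.permCongrHom.injective ((ht : φ (t : G) = 1).trans (map_one _).symm)
      haveI : Subsingleton (Sylow 2 S) := ⟨fun A B => by
        obtain ⟨s, rfl⟩ := MulAction.exists_smul_eq S A B
        have h1 := Equiv.congr_fun (hfix s) A
        refine h1.symm.trans ?_
        refine Sylow.ext (Subgroup.ext fun y => ?_)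
        simp only [φ0, MonoidHom.comp_apply, MulAction.toPermHom_apply, MulAction.toPerm_apply,
          Sylow.pointwise_smul_def, Sylow.smul_def]
        rw [Subgroup.mem_pointwise_smul_iff_inv_smul_mem, Subgroup.mem_pointwise_smul_iff_inv_smul_mem]
        congr! 1
        ext
        simp [MulAut.smul_def, MulAut.conjNormal_inv_apply, MulAut.inv_apply]⟩
      have := Finite.card_le_one_iff_subsingleton.mpr (inferInstance : Subsingleton (Sylow 2 S))
      omega
  have hker : φ.ker = C := by
    apply le_antisymm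
    · intro l hl s hs
      have hval : ∀ t : S, l * t * l⁻¹ * (t : G)⁻¹ ∈ φ.ker ∧ l * t * l⁻¹ * (t : G)⁻¹ ∈ S :=
        fun t => ⟨by
          have e : l * t * l⁻¹ * (t : G)⁻¹ = l * ((t : G) * l⁻¹ * (t : G)⁻¹) := by group
          rw [e]
          exact mul_mem hl ((inferInstance : φ.ker.Normal).conj_mem _ (inv_mem hl) t),
        mul_mem (hSn.conj_mem _ t.2 l) (inv_mem t.2)⟩
      have hcen : ∀ t : S, (⟨_, (hval t).2⟩ : S) ∈ Subgroup.center S := fun t => by
        rw [Subgroup.mem_center_iff]
        intro g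
        apply ψ.injective
        rw [map_mul, map_mul]
        rcases hLS _ (hval t).1 (hval t).2 with h | h <;> rw [h]
        · rw [mul_one, one_mul]
        · apply key_injective
          rw [key_mul, key_mul]
          obtain ⟨k, hk, hkk⟩ := exists_entry (ψ g)
          rw [← hkk]
          have hd : ∀ k ∈ table, kmul k.1 (key Z5c) = kmul (key Z5c) k.1 := by
            rw [Z5c, key_mkT]; decide +kernel
          exact hd k hk
      let δ : S →* Subgroup.center S := MonoidHom.mk' (fun t => ⟨_, hcen t⟩) fun a b => by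
        apply Subtype.ext
        apply Subtype.ext
        have hcb : (a : G) * (l * b * l⁻¹ * (b : G)⁻¹) = l * b * l⁻¹ * (b : G)⁻¹ * a :=
          congrArg Subtype.val (Subgroup.mem_center_iff.mp (hcen b) a)
        show l * ((a : G) * b) * l⁻¹ * ((a : G) * b)⁻¹ =
          l * a * l⁻¹ * (a : G)⁻¹ * (l * b * l⁻¹ * (b : G)⁻¹)
        calc l * ((a : G) * b) * l⁻¹ * ((a : G) * b)⁻¹
            = l * a * l⁻¹ * ((l * b * l⁻¹ * (b : G)⁻¹) * (a : G)⁻¹) := by group
          _ = l * a * l⁻¹ * ((a : G)⁻¹ * (l * b * l⁻¹ * (b : G)⁻¹)) := by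
              congr 1
              rw [eq_inv_mul_iff_mul_eq, ← mul_assoc, hcb, mul_inv_cancel_right]
          _ = _ := by group
      letI : CommGroup (Subgroup.center S) :=
        { (inferInstance : Group (Subgroup.center S)) with
          mul_comm := fun x y => Subtype.ext (Subgroup.mem_center_iff.mp y.2 (x : S)) }
      have h1 := hom_eq_one_of_perfect hSperf δ ⟨s, hs⟩
      have h2 : l * s * l⁻¹ * s⁻¹ = 1 := congrArg (fun x : Subgroup.center S => ((x : S) : G)) h1
      rw [mul_inv_eq_one, mul_inv_eq_iff_eq_mul] at h2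
      exact h2.symm
    · intro c hc
      have h1 : MulAut.conjNormal (H := S) c = 1 := by
        ext r
        exact mul_inv_eq_iff_eq_mul.mpr (hc r r.2).symm
      show σ.permCongrHom (φ0 c) = 1
      rw [show φ0 c = MulAction.toPermHom (MulAut S) (Sylow 2 S) (MulAut.conjNormal c) from rfl, h1,
        map_one, map_one]
  have h60 : Nat.factorial 5 ≤ 2 * Nat.card φ.range := by
    have hk2 : Nat.card (φ.comp S.subtype).ker ≤ 2 := by
      let i : (φ.comp S.subtype).ker → Bool := fun x => decide (ψ (x : S) = 1)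
      refine le_trans (Nat.card_le_card_of_injective i fun x y hxy => ?_) (by simp)
      simp only [i, decide_eq_decide] at hxy
      apply Subtype.ext
      apply ψ.injective
      rcases hLS _ x.2 (x : S).2 with hx | hx <;> rcases hLS _ y.2 (y : S).2 with hy | hy <;>
        first
          | exact hx.trans hy.symm
          | exact hx.trans (hxy.mp hx).symm
          | exact (hxy.mpr hy).trans hy.symm
    have hle : Nat.card (φ.comp S.subtype).range ≤ Nat.card φ.range :=
      Nat.le_of_dvd Nat.card_pos (Subgroup.card_dvd_of_le (by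
        rw [MonoidHom.range_comp]; exact Subgroup.map_le_range _ _))
    have hmul : Nat.card (φ.comp S.subtype).range * Nat.card (φ.comp S.subtype).ker = 120 := by
      rw [← Subgroup.index_ker, Subgroup.index_mul_card, hcardS]
    have := Nat.mul_le_mul hle hk2
    rw [hmul] at this
    rw [show Nat.factorial 5 = 120 from rfl]
    omega
  exact ⟨φ, hker, h60⟩

theorem exists_quot_of_nonsolvable (hns : ¬ Group.IsSolvable G) :
    ∃ N : Subgroup G, N.Normal ∧ IsZGroup N ∧ QuotType N := by
  classical
  haveI : Fact (Nat.Prime 2) := ⟨Nat.prime_two⟩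
  obtain ⟨S, M, hSn, -, ⟨ψ⟩, -⟩ := F.nonsolvable_structure hns
  set C := Subgroup.centralizer (S : Set G) with hCdef
  haveI : C.Normal := inferInstance
  have hno4 : ∀ c ∈ C, orderOf c ≠ 4 := F.centralizer_no_four ψ
  have hCZ : IsZGroup C := F.isZGroup_of_two C fun Q => by
    rcases (F.res C).sylow_cases Q with h | ⟨-, n, ⟨e⟩⟩
    · exact h
    · exfalso
      refine hno4 _ ((e.symm (QuaternionGroup.xa 0) : Q) : C).2 ?_
      haveI : NeZero (2 ^ n) := ⟨by positivity⟩
      rw [Subgroup.orderOf_coe, Subgroup.orderOf_coe, MulEquiv.orderOf_eq,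
        QuaternionGroup.orderOf_xa]
  obtain ⟨φ, hker, h60⟩ := F.exists_perm_five ψ
  refine ⟨C, inferInstance, hCZ, ?_⟩
  rcases perm_range_cases (by norm_num) φ h60 with ⟨f, hf, hk⟩ | ⟨f, hf, hk⟩
  · exact Or.inr (Or.inr (Or.inr (Or.inr (Or.inr ⟨f, hf, hk.trans hker⟩))))
  · exact Or.inr (Or.inr (Or.inr (Or.inr (Or.inl ⟨f, hf, hk.trans hker⟩))))

theorem exists_quot : ∃ N : Subgroup G, N.Normal ∧ IsZGroup N ∧ QuotType N := by
  by_cases hZ : IsZGroup G
  · exact ⟨⊤, inferInstance, inferInstance, Or.inl rfl⟩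
  by_cases hs : Group.IsSolvable G
  · exact F.exists_quot_of_solvable hZ
  · exact F.exists_quot_of_nonsolvable hs

theorem quot_unique {N N' : Subgroup G} [hNn : N.Normal] [IsZGroup N] [hN'n : N'.Normal]
    [IsZGroup N'] (h : QuotType N) (h' : QuotType N') : N = N' := by
  classical
  by_cases hZ : IsZGroup G
  · have key : ∀ M : Subgroup G, QuotType M → M = ⊤ := fun M hM => by
      rcases quotType_cases hM with hM | ⟨f, hf, -⟩ | ⟨Q, _, _, f, hQ, hf, -⟩
      · exact hM
      · exact absurd (IsZGroup.of_surjective hf) not_isZGroup_dihedral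
      · exact absurd (IsZGroup.of_surjective hf) hQ.not_isZGroup
    rw [key N h, key N' h']
  have hne : ∀ M : Subgroup G, IsZGroup M → M ≠ ⊤ := fun M hM htop => hZ <| by
    haveI := hM
    exact IsZGroup.of_surjective (f := M.subtype)
      (MonoidHom.range_eq_top.mp (M.range_subtype.trans htop))
  rcases quotType_cases h with h | ⟨f, hf, hk⟩ | ⟨Q, _, _, f, hQ, hf, hk⟩
  · exact absurd h (hne N inferInstance)
  · rcases quotType_cases h' with h' | ⟨f', hf', hk'⟩ | ⟨Q', _, _, f', hQ', hf', hk'⟩
    · exact absurd h' (hne N' inferInstance)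
    · -- two four-group quotients
      obtain ⟨P, n, hn, ⟨e⟩⟩ := F.exists_quat_sylow hZ
      haveI : Fact (Nat.Prime 2) := ⟨Nat.prime_two⟩
      haveI : NeZero (2 ^ n) := ⟨by positivity⟩
      let θ : G →* DihedralGroup 2 × DihedralGroup 2 := f.prod f'
      have hθk : θ.ker = N ⊓ N' := by
        rw [← hk, ← hk']; exact MonoidHom.ker_prod f f'
      have hexp : ∀ a : DihedralGroup 2 × DihedralGroup 2, a * a = 1 := by decide
      have hp : IsPGroup 2 θ.range := fun a => ⟨1, Subtype.ext (by
        show (a : DihedralGroup 2 × DihedralGroup 2) ^ (2 ^ 1) = 1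
        rw [pow_one, pow_two, hexp])⟩
      have htop : (P.mapSurjective θ.rangeRestrict_surjective : Subgroup θ.range) = ⊤ :=
        ((P.mapSurjective θ.rangeRestrict_surjective).3 (hp.to_subgroup ⊤) le_top).symm
      let η : QuaternionGroup (2 ^ n) →* DihedralGroup 2 × DihedralGroup 2 :=
        (θ.comp (P : Subgroup G).subtype).comp e.symm.toMonoidHom
      have hrange : θ.range ≤ η.range := by
        rintro y ⟨x, rfl⟩
        have hmem : θ.rangeRestrict x ∈ (P.mapSurjective θ.rangeRestrict_surjective :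
            Subgroup θ.range) := htop ▸ Subgroup.mem_top _
        obtain ⟨p, hp', hpx⟩ := hmem
        refine ⟨e ⟨p, hp'⟩, ?_⟩
        show θ ((e.symm (e ⟨p, hp'⟩) : P) : G) = θ x
        rw [e.symm_apply_apply]
        exact congrArg Subtype.val hpx
      set u := η (QuaternionGroup.a 1) with hu
      set w := η (QuaternionGroup.xa 0) with hw
      have hclos : ∀ u w : DihedralGroup 2 × DihedralGroup 2,
          ∀ a ∈ [1, u, w, u * w], ∀ b ∈ [1, u, w, u * w], a * b ∈ [1, u, w, u * w] := by
        intro u w a ha b hb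
        have hc : ∀ x y : DihedralGroup 2 × DihedralGroup 2, x * y = y * x := fun x y => by
          have h1 := hexp (x * y)
          have hx := inv_eq_of_mul_eq_one_right (hexp x)
          have hy := inv_eq_of_mul_eq_one_right (hexp y)
          rw [← inv_eq_of_mul_eq_one_right h1, mul_inv_rev, hx, hy]
        have h2 : u * (u * w) = w := by rw [← mul_assoc, hexp, one_mul]
        have h3 : w * (u * w) = u := by rw [hc u w, ← mul_assoc, hexp, one_mul]
        have h4 : (u * w) * u = w := by rw [hc, h2]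
        have h5 : (u * w) * w = u := by rw [mul_assoc, hexp, mul_one]
        simp only [List.mem_cons, List.not_mem_nil, or_false] at ha hb ⊢
        rcases ha with rfl | rfl | rfl | rfl <;> rcases hb with rfl | rfl | rfl | rfl <;>
          first
            | exact Or.inr (Or.inr (Or.inr (hc _ _)))
            | simp [hexp, h2, h3, h4, h5]
      have hsub : ∀ y ∈ η.range, y ∈ [1, u, w, u * w] := by
        rintro y ⟨q, rfl⟩
        have hq : q ∈ Subgroup.closure {QuaternionGroup.a 1, QuaternionGroup.xa 0} :=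
          quat_top (m := 2 ^ n) ▸ Subgroup.mem_top q
        induction hq using Subgroup.closure_induction with
        | mem x hx => rcases hx with rfl | rfl <;> simp [← hu, ← hw]
        | one => simp
        | mul a b _ _ ha hb => rw [map_mul]; exact hclos u w _ ha _ hb
        | inv a _ ha => rw [map_inv, inv_eq_of_mul_eq_one_right (hexp _)]; exact ha
      have h4 : θ.ker.index ≤ 4 := by
        rw [Subgroup.index_ker]
        calc Nat.card θ.range ≤ Nat.card ([1, u, w, u * w].toFinset : Finset _) :=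
              Nat.card_le_card_of_injective
                (fun y => (⟨(y : DihedralGroup 2 × DihedralGroup 2),
                  List.mem_toFinset.mpr (hsub _ (hrange y.2))⟩ :
                    ([1, u, w, u * w].toFinset : Finset (DihedralGroup 2 × DihedralGroup 2))))
                fun y z hyz => Subtype.ext (congrArg Subtype.val hyz :)
          _ ≤ 4 := by
              rw [Nat.card_eq_fintype_card, Fintype.card_coe]
              exact (List.toFinset_card_le _).trans le_rfl
      have hidx : ∀ (g : G →* DihedralGroup 2), Function.Surjective g → g.ker.index = 4 := by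
        intro g hg
        rw [Subgroup.index_ker, MonoidHom.range_eq_top.mpr hg, Subgroup.card_top,
          Nat.card_eq_fintype_card]
        decide
      have key : ∀ M : Subgroup G, θ.ker ≤ M → M.index = 4 → θ.ker = M := fun M hle hM => by
        refine le_antisymm hle fun x hx => ?_
        have h1 := Subgroup.relIndex_mul_index hle
        rw [hM] at h1
        have h2 : θ.ker.relIndex M ≠ 0 := Subgroup.index_ne_zero_of_finite
        have h3 : θ.ker.relIndex M = 1 := by omega
        exact Subgroup.relIndex_eq_one.mp h3 hx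
      rw [← key N (hθk.le.trans inf_le_left) (hk ▸ hidx f hf),
        ← key N' (hθk.le.trans inf_le_right) (hk' ▸ hidx f' hf')]
    · exfalso
      have hle : N ≤ N' := hk' ▸ le_ker_of_bigType hf' hQ' N
      have h1 := Subgroup.index_dvd_of_le hle
      rw [← hk, ← hk', Subgroup.index_ker, Subgroup.index_ker, MonoidHom.range_eq_top.mpr hf,
        MonoidHom.range_eq_top.mpr hf', Subgroup.card_top, Subgroup.card_top] at h1
      have h4 : Nat.card (DihedralGroup 2) = 4 := by rw [Nat.card_eq_fintype_card]; decide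
      have h5 := Nat.le_of_dvd (by omega) h1
      have := hQ'.card
      omega
  · rcases quotType_cases h' with h' | ⟨f', hf', hk'⟩ | ⟨Q', _, _, f', hQ', hf', hk'⟩
    · exact absurd h' (hne N' inferInstance)
    · exfalso
      have hle : N' ≤ N := hk ▸ le_ker_of_bigType hf hQ N'
      have h1 := Subgroup.index_dvd_of_le hle
      rw [← hk, ← hk', Subgroup.index_ker, Subgroup.index_ker, MonoidHom.range_eq_top.mpr hf,
        MonoidHom.range_eq_top.mpr hf', Subgroup.card_top, Subgroup.card_top] at h1
      have h4 : Nat.card (DihedralGroup 2) = 4 := by rw [Nat.card_eq_fintype_card]; decide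
      have h5 := Nat.le_of_dvd (by omega) h1
      have := hQ.card
      omega
    · exact le_antisymm (hk' ▸ le_ker_of_bigType hf' hQ' N) (hk ▸ le_ker_of_bigType hf hQ N')

end FPFRep

end Cfsg.Agent.FGS4.Zass
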