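/-
Metacyclic Frobenius complements and their presentation.
-/
import Cfsg.Agent.FGS4.Zass.Quot
import Mathlib.GroupTheory.PresentedGroup

set_option autoImplicit false
set_option linter.style.haveILetI false

namespace Cfsg.Agent.FGS4.Zass

namespace FPFRep

variable {G V : Type*} [Group G] [Finite G] [AddCommGroup V] [Module ℂ V] [FiniteDimensional ℂ V]
  [Nontrivial V] (F : FPFRep G V)
include F

/-- An element of prime order centralizes every cyclic subgroup it normalizes. -/
theorem commute_of_normalizes {p : ℕ} [hp : Fact p.Prime] {a b : G} (ha : orderOf a = p)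
    (hn : a⁻¹ * b * a ∈ Subgroup.zpowers b) : a * b = b * a := by
  classical
  by_contra hne
  obtain ⟨z, hz⟩ := Module.End.exists_eigenvalue (F.ρ b)
  obtain ⟨v, hv⟩ := Module.End.HasEigenvalue.exists_hasEigenvector hz
  have hpw : ∀ k : ℕ, F.ρ (b ^ k) v = z ^ k • v := by
    intro k
    induction k with
    | zero => simp
    | succ i ih =>
      rw [pow_succ, apply_mul, hv.apply_eq_smul, map_smul, ih, smul_smul, ← pow_succ']
  let c : Fin p → G := fun j => (a ^ (j : ℕ))⁻¹ * b * a ^ (j : ℕ)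
  have hc : ∀ j : ℕ, (a ^ j)⁻¹ * b * a ^ j ∈ Subgroup.zpowers b := by
    intro j
    induction j with
    | zero => simpa using Subgroup.mem_zpowers b
    | succ i ih =>
      obtain ⟨k, hk⟩ := ih
      have e : (a ^ (i + 1))⁻¹ * b * a ^ (i + 1) = a⁻¹ * ((a ^ i)⁻¹ * b * a ^ i) * a := by
        rw [pow_succ]; group
      rw [e, ← hk]
      have e2 : a⁻¹ * b ^ k * a = (a⁻¹ * b * a) ^ k := by
        simpa using map_zpow (MulAut.conj a⁻¹) b k
      show a⁻¹ * b ^ k * a ∈ _
      rw [e2]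
      exact zpow_mem hn k
  have hev : ∀ j : Fin p, ∃ μ : ℂ, F.ρ (c j) v = μ • v := fun j => by
    obtain ⟨k, hk⟩ := mem_powers_iff_mem_zpowers.mpr (hc j)
    exact ⟨z ^ k, by rw [show c j = b ^ k from hk.symm, hpw]⟩
  choose μ hμ using hev
  have hinj : Function.Injective μ := by
    intro i j hij
    by_contra hne'
    have h1 : c i = c j := F.eq_of_apply hv.2 (by rw [hμ, hμ, hij])
    wlog hlt : (i : ℕ) < j generalizing i j
    · exact this hij.symm (Ne.symm hne') h1.symm
        (lt_of_le_of_ne (not_lt.mp hlt) fun h => hne' (Fin.ext h.symm))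
    -- `a ^ (j - i)` centralizes `b`
    set d := (j : ℕ) - i with hd
    have hcomm : Commute (a ^ d) b := by
      have e : a ^ (j : ℕ) = a ^ d * a ^ (i : ℕ) := by rw [← pow_add]; congr 1; omega
      simp only [c, e] at h1
      have h2 := congrArg (fun t => a ^ (i : ℕ) * t * (a ^ (i : ℕ))⁻¹) h1
      simp only [mul_inv_rev] at h2
      have h3 : b = (a ^ d)⁻¹ * b * a ^ d := by
        calc b = a ^ (i : ℕ) * ((a ^ (i : ℕ))⁻¹ * b * a ^ (i : ℕ)) * (a ^ (i : ℕ))⁻¹ := by group
          _ = _ := h2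
          _ = _ := by group
      show a ^ d * b = b * a ^ d
      calc a ^ d * b = a ^ d * ((a ^ d)⁻¹ * b * a ^ d) := by rw [← h3]
        _ = b * a ^ d := by group
    have hcop : (orderOf a).Coprime d := by
      rw [ha]
      exact Nat.coprime_of_lt_prime (by omega) (by have := j.isLt; omega) hp.out
    obtain ⟨m, hm⟩ := exists_pow_eq_self_of_coprime hcop.symm
    exact hne (hm ▸ hcomm.pow_left m).eq
  let w : Fin p → V := fun j => F.ρ (a ^ (j : ℕ)) v
  have hw : ∀ j, Module.End.HasEigenvector (F.ρ b) (μ j) (w j) := fun j => by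
    refine ⟨Module.End.mem_eigenspace_iff.mpr ?_, fun h => hv.2 ?_⟩
    · show F.ρ b (F.ρ (a ^ (j : ℕ)) v) = μ j • F.ρ (a ^ (j : ℕ)) v
      rw [← map_smul, ← hμ, ← apply_mul, ← apply_mul]
      congr 2
      simp only [c]; group
    · have h2 : F.ρ ((a ^ (j : ℕ))⁻¹ * a ^ (j : ℕ)) v = 0 := by
        rw [apply_mul, show F.ρ (a ^ (j : ℕ)) v = 0 from h, map_zero]
      simpa using h2
  have hli := Module.End.eigenvectors_linearIndependent' (F.ρ b) μ hinj w hw
  have hsum : ∑ j : Fin p, w j = 0 := by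
    refine F.fpf a (fun h => ?_) _ ?_
    · rw [h, orderOf_one] at ha; exact hp.out.ne_one ha.symm
    · rw [map_sum]
      refine Fintype.sum_equiv (finRotate p) _ _ fun j => ?_
      show F.ρ a (F.ρ (a ^ (j : ℕ)) v) = F.ρ (a ^ ((finRotate p j : Fin p) : ℕ)) v
      rw [← apply_mul, ← pow_succ']
      congr 2
      obtain ⟨p', rfl⟩ : ∃ p', p = p' + 1 := ⟨p - 1, by have := hp.out.pos; omega⟩
      rw [finRotate_apply, Fin.val_add_one]
      split_ifs with h
      · rw [h, Fin.val_last, ← ha, pow_orderOf_eq_one, pow_zero]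
      · rfl
  have h0 := Fintype.linearIndependent_iff.mp hli (fun _ => (1 : ℂ)) (by simpa using hsum)
    ⟨0, hp.out.pos⟩
  exact one_ne_zero h0

end FPFRep

theorem dvd_div_prod_primeFactors {n d : ℕ} (hn : 0 < n) (hd : d ∣ n)
    (h : ∀ p ∈ n.primeFactors, d ∣ n / p) : d ∣ n / ∏ p ∈ n.primeFactors, p := by
  obtain ⟨c, hc⟩ := hd
  have hprod : ∏ p ∈ n.primeFactors, p ∣ c := by
    refine Finset.prod_primes_dvd c (fun p hp => (Nat.prime_of_mem_primeFactors hp).prime)
      fun p hp => ?_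
    obtain ⟨e, he⟩ := h p hp
    have hpn := Nat.dvd_of_mem_primeFactors hp
    have h2 : n / p * p = n := Nat.div_mul_cancel hpn
    rw [he, hc, mul_assoc] at h2
    exact ⟨e, by rw [mul_comm]; exact (Nat.eq_of_mul_eq_mul_left (Nat.pos_of_ne_zero fun h0 => by
      rw [h0, zero_mul] at hc; omega) h2).symm⟩
  obtain ⟨e, he⟩ := hprod
  refine ⟨e, ?_⟩
  refine Nat.div_eq_of_eq_mul_left (Finset.prod_pos fun p hp => Nat.pos_of_mem_primeFactors hp) ?_
  refine hc.trans ?_
  rw [he]; ring

section Presentation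

open FreeGroup in
/-- The relators of a metacyclic group. -/
abbrev metaRels (n m r : ℕ) : Set (FreeGroup (Fin 2)) :=
  {FreeGroup.of (0 : Fin 2) ^ n, FreeGroup.of (1 : Fin 2) ^ m,
    (FreeGroup.of (0 : Fin 2))⁻¹ * FreeGroup.of 1 * FreeGroup.of 0 * (FreeGroup.of (1 : Fin 2) ^ r)⁻¹}

theorem nonempty_equiv_presented {H : Type*} [Group H] [Finite H] {x y : H} {n m r : ℕ}
    (hgen : Subgroup.closure {x, y} = ⊤) (hx : orderOf x = n) (hy : orderOf y = m)
    (hxy : x⁻¹ * y * x = y ^ r) (hnm : n.Coprime m) :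
    Nonempty (H ≃* PresentedGroup (metaRels n m r)) := by
  have hn : 0 < n := hx ▸ orderOf_pos x
  have hm : 0 < m := hy ▸ orderOf_pos y
  let f : Fin 2 → H := ![x, y]
  have hrel : ∀ w ∈ metaRels n m r, FreeGroup.lift f w = 1 := by
    rintro w (rfl | rfl | rfl)
    · simp [f, ← hx, pow_orderOf_eq_one]
    · simp [f, ← hy, pow_orderOf_eq_one]
    · simp [f, hxy]
  let φ : PresentedGroup (metaRels n m r) →* H := PresentedGroup.toGroup hrel
  set X : PresentedGroup (metaRels n m r) := PresentedGroup.of 0 with hX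
  set Y : PresentedGroup (metaRels n m r) := PresentedGroup.of 1 with hY
  have hφX : φ X = x := PresentedGroup.toGroup.of hrel
  have hφY : φ Y = y := PresentedGroup.toGroup.of hrel
  have hXn : X ^ n = 1 := by
    rw [hX, PresentedGroup.of, ← map_pow]
    exact PresentedGroup.one_of_mem (Or.inl rfl)
  have hYm : Y ^ m = 1 := by
    rw [hY, PresentedGroup.of, ← map_pow]
    exact PresentedGroup.one_of_mem (Or.inr (Or.inl rfl))
  have hconj : X⁻¹ * Y * X = Y ^ r := by
    rw [← mul_inv_eq_one, hX, hY, PresentedGroup.of, PresentedGroup.of, ← map_inv, ← map_pow,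
      ← map_mul, ← map_mul, ← map_inv, ← map_mul]
    exact PresentedGroup.one_of_mem (Or.inr (Or.inr rfl))
  have hYX : ∀ k : ℕ, Y ^ k * X = X * Y ^ (r * k) := fun k => by
    have h1 : SemiconjBy X (Y ^ r) Y := by
      show X * Y ^ r = Y * X
      rw [← hconj]; group
    rw [pow_mul]; exact (h1.pow_right k).symm
  let S : Set (PresentedGroup (metaRels n m r)) :=
    {g | ∃ i j : ℕ, g = X ^ i * Y ^ j}
  have hpowX : ∀ i k : ℕ, Y ^ k * X ^ i = X ^ i * Y ^ (r ^ i * k) := by
    intro i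
    induction i with
    | zero => simp
    | succ i ih =>
      intro k
      rw [pow_succ, ← mul_assoc, ih, mul_assoc, hYX, ← mul_assoc, pow_succ' r i, mul_assoc r]
  have hmulS : ∀ a ∈ S, ∀ b ∈ S, a * b ∈ S := by
    rintro _ ⟨i, j, rfl⟩ _ ⟨k, l, rfl⟩
    refine ⟨i + k, r ^ k * j + l, ?_⟩
    rw [pow_add, pow_add, mul_assoc, ← mul_assoc (Y ^ j), hpowX]
    simp only [mul_assoc]
  have hall : ∀ g : PresentedGroup (metaRels n m r), g ∈ S := by
    intro g
    have hg : g ∈ Subgroup.closure (Set.range PresentedGroup.of) :=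
      (PresentedGroup.closure_range_of (metaRels n m r)) ▸ Subgroup.mem_top g
    induction hg using Subgroup.closure_induction with
    | mem z hz =>
      obtain ⟨i, rfl⟩ := hz
      fin_cases i
      · exact ⟨1, 0, by simp [hX]⟩
      · exact ⟨0, 1, by simp [hY]⟩
    | one => exact ⟨0, 0, by simp⟩
    | mul a b _ _ ha hb => exact hmulS a ha b hb
    | inv a _ ha =>
      obtain ⟨i, j, rfl⟩ := ha
      have hXi : (X ^ i)⁻¹ = X ^ ((n - 1) * i) := by
        refine inv_eq_of_mul_eq_one_right ?_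
        rw [← pow_add, show i + (n - 1) * i = n * i by
          obtain ⟨n', rfl⟩ : ∃ n', n = n' + 1 := ⟨n - 1, by omega⟩
          rw [Nat.add_sub_cancel]; ring, pow_mul, hXn, one_pow]
      have hYj : (Y ^ j)⁻¹ = Y ^ ((m - 1) * j) := by
        refine inv_eq_of_mul_eq_one_right ?_
        rw [← pow_add, show j + (m - 1) * j = m * j by
          obtain ⟨m', rfl⟩ : ∃ m', m = m' + 1 := ⟨m - 1, by omega⟩
          rw [Nat.add_sub_cancel]; ring, pow_mul, hYm, one_pow]
      rw [mul_inv_rev, hXi, hYj]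
      exact hmulS _ ⟨0, (m - 1) * j, by simp⟩ _ ⟨(n - 1) * i, 0, by simp⟩
  have hsurj : Function.Surjective φ := by
    rw [← MonoidHom.range_eq_top, eq_top_iff, ← hgen, Subgroup.closure_le]
    rintro z (rfl | rfl)
    exacts [⟨X, hφX⟩, ⟨Y, hφY⟩]
  have hinj : Function.Injective φ := (injective_iff_map_eq_one φ).mpr fun g hg => by
    obtain ⟨i, j, rfl⟩ := hall g
    rw [map_mul, map_pow, map_pow, hφX, hφY] at hg
    have h1 : x ^ i = (y ^ j)⁻¹ := eq_inv_of_mul_eq_one_left hg
    have hxi : x ^ i = 1 := by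
      refine orderOf_eq_one_iff.mp (Nat.eq_one_of_dvd_coprimes hnm ?_ ?_)
      · rw [← hx]; exact orderOf_pow_dvd i
      · rw [h1, orderOf_inv, ← hy]; exact orderOf_pow_dvd j
    have hyj : y ^ j = 1 := by rwa [hxi, one_mul] at hg
    obtain ⟨a, rfl⟩ : n ∣ i := hx ▸ orderOf_dvd_of_pow_eq_one hxi
    obtain ⟨b, rfl⟩ : m ∣ j := hy ▸ orderOf_dvd_of_pow_eq_one hyj
    rw [pow_mul, pow_mul, hXn, hYm, one_pow, one_pow, one_mul]
  exact ⟨(MulEquiv.ofBijective φ ⟨hinj, hsurj⟩).symm⟩

end Presentation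

theorem not_isSolvable_alt_five : ¬ Group.IsSolvable (alternatingGroup (Fin 5)) := fun h => by
  haveI := h
  haveI : Nontrivial (alternatingGroup (Fin 5)) := IsSimpleGroup.toNontrivial
  have hc : commutator (alternatingGroup (Fin 5)) = ⊤ := by
    refine (IsSimpleGroup.eq_bot_or_eq_top_of_normal _ inferInstance).resolve_left fun hb => ?_
    let a : alternatingGroup (Fin 5) :=
      ⟨Equiv.swap 0 1 * Equiv.swap 1 2, Equiv.Perm.mem_alternatingGroup.mpr (by decide +kernel)⟩
    let b : alternatingGroup (Fin 5) :=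
      ⟨Equiv.swap 2 3 * Equiv.swap 3 4, Equiv.Perm.mem_alternatingGroup.mpr (by decide +kernel)⟩
    have hm : a * b * a⁻¹ * b⁻¹ ∈ commutator (alternatingGroup (Fin 5)) :=
      Subgroup.commutator_mem_commutator (Subgroup.mem_top a) (Subgroup.mem_top b)
    rw [hb, Subgroup.mem_bot] at hm
    revert hm
    simp only [a, b, Subtype.ext_iff, Subgroup.coe_mul, Subgroup.coe_inv, Subgroup.coe_one]
    decide +kernel
  exact not_subsingleton _ (subsingleton_of_perfect_solvable hc)

/-- Any group of order four embeds into `S₄`. -/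
theorem exists_hom_perm_four {G Q : Type*} [Group G] [Group Q] [Finite Q] (hQ : Nat.card Q = 4)
    (f : G →* Q) : ∃ g : G →* Equiv.Perm (Fin 4), g.ker = f.ker := by
  refine ⟨((Finite.equivFinOfCardEq hQ).permCongrHom.toMonoidHom.comp
    (MulAction.toPermHom Q Q)).comp f, ?_⟩
  rw [← MonoidHom.comap_ker]
  have : ((Finite.equivFinOfCardEq hQ).permCongrHom.toMonoidHom.comp
      (MulAction.toPermHom Q Q)).ker = ⊥ :=
    (MonoidHom.ker_eq_bot_iff _).mpr
      ((Finite.equivFinOfCardEq hQ).permCongrHom.injective.comp MulAction.toPerm_injective)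
  rw [this, MonoidHom.comap_bot]

end Cfsg.Agent.FGS4.Zass
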